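import Cfsg.Agent.Lib.Helper41.OFStmt

set_option autoImplicit false

namespace Cfsg.Agent.Lib.Helper50.OFDETS0

open Matrix
open Cfsg.Agent.Lib.Helper41.SpFStmt (Mat)
open Cfsg.Agent.Lib.Helper41.OFStmt

universe u

theorem main : DetS0.{u} := by
  intro F _ d
  have h1 : (Matrix.fromBlocks (1 : Matrix (Fin d) (Fin d) F) 0
      (1 : Matrix (Fin d) (Fin d) F) (1 : Matrix (Fin d) (Fin d) F)) * S0 d F =
      Matrix.fromBlocks (0 : Matrix (Fin d) (Fin d) F) (1 : Matrix (Fin d) (Fin d) F)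
        (1 : Matrix (Fin d) (Fin d) F) (1 : Matrix (Fin d) (Fin d) F) := by
    unfold S0
    rw [Matrix.fromBlocks_multiply]
    simp
  have h2 : (Matrix.fromBlocks (1 : Matrix (Fin d) (Fin d) F) 0
      (1 : Matrix (Fin d) (Fin d) F) (1 : Matrix (Fin d) (Fin d) F)).det = 1 := by
    rw [Matrix.det_fromBlocks_zero₁₂]; simp
  have h3 : (Matrix.fromBlocks (0 : Matrix (Fin d) (Fin d) F) (1 : Matrix (Fin d) (Fin d) F)
        (1 : Matrix (Fin d) (Fin d) F) (1 : Matrix (Fin d) (Fin d) F)).det = (-1) ^ d := by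
    rw [Matrix.det_fromBlocks_one₂₂]
    simp [Matrix.det_neg]
  have h4 := congrArg Matrix.det h1
  rw [Matrix.det_mul, h2, one_mul, h3] at h4
  exact h4

end Cfsg.Agent.Lib.Helper50.OFDETS0

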