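import Cfsg.Agent.Lib.Helper41.OFStmt

set_option autoImplicit false

namespace Cfsg.Agent.Lib.Helper50.OFOBR

open Matrix
open Cfsg.Agent.Lib.Helper41.SpFStmt (Mat)
open Cfsg.Agent.Lib.Helper41.OFStmt

universe u

variable {F : Type u} [Field F] {d : ℕ}

/-- The polar form in coordinates. -/
theorem dot_S0 (u v : Fin d ⊕ Fin d → F) :
    u ⬝ᵥ (S0 d F *ᵥ v) = ∑ i : Fin d, (u (.inl i) * v (.inr i) + u (.inr i) * v (.inl i)) := by
  unfold S0
  rw [Matrix.fromBlocks_mulVec]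
  simp only [dotProduct, Fintype.sum_sum_type, Sum.elim_inl, Sum.elim_inr, Matrix.zero_mulVec,
    Matrix.one_mulVec, zero_add, add_zero, Function.comp_apply, Finset.sum_add_distrib]

theorem quad_add (u v : Fin d ⊕ Fin d → F) :
    Cfsg.quadFormPlus d F (u + v) =
      Cfsg.quadFormPlus d F u + Cfsg.quadFormPlus d F v + u ⬝ᵥ (S0 d F *ᵥ v) := by
  rw [dot_S0]
  unfold Cfsg.quadFormPlus
  rw [← Finset.sum_add_distrib, ← Finset.sum_add_distrib]
  apply Finset.sum_congr rfl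
  intro i _
  simp only [Pi.add_apply]
  ring

theorem dot_self (u : Fin d ⊕ Fin d → F) :
    u ⬝ᵥ (S0 d F *ᵥ u) = 2 * Cfsg.quadFormPlus d F u := by
  rw [dot_S0]
  unfold Cfsg.quadFormPlus
  rw [Finset.mul_sum]
  apply Finset.sum_congr rfl
  intro i _
  ring

theorem dot_conj (g : Mat d F) (u v : Fin d ⊕ Fin d → F) :
    (g *ᵥ u) ⬝ᵥ (S0 d F *ᵥ (g *ᵥ v)) = u ⬝ᵥ ((gᵀ * S0 d F * g) *ᵥ v) := by
  rw [← Matrix.vecMul_transpose, ← Matrix.dotProduct_mulVec, Matrix.mulVec_mulVec,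
    Matrix.mulVec_mulVec, Matrix.mul_assoc]

theorem mem_iff (g : GL (Fin d ⊕ Fin d) F) :
    g ∈ Cfsg.isometryGroup F (Cfsg.quadFormPlus d F) ↔
      ∀ u : Fin d ⊕ Fin d → F, Cfsg.quadFormPlus d F (g.val *ᵥ u) = Cfsg.quadFormPlus d F u := by
  constructor
  · intro h u
    exact h u u
  · intro h u v
    exact h u

theorem main : OBr.{u} := by
  intro F _ h2 d g
  rw [mem_iff]
  constructor
  · intro h
    have hB : ∀ u v : Fin d ⊕ Fin d → F,
        u ⬝ᵥ ((g.valᵀ * S0 d F * g.val) *ᵥ v) = u ⬝ᵥ (S0 d F *ᵥ v) := by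
      intro u v
      rw [← dot_conj]
      have h1 := quad_add (g.val *ᵥ u) (g.val *ᵥ v)
      rw [← Matrix.mulVec_add, h, h u, h v, quad_add u v] at h1
      exact (add_left_cancel h1).symm
    ext i j
    have := hB (Pi.single i 1) (Pi.single j 1)
    simpa using this
  · intro h u
    have h1 := dot_self (g.val *ᵥ u)
    rw [dot_conj, h, dot_self] at h1
    exact (mul_left_cancel₀ h2 h1).symm

end Cfsg.Agent.Lib.Helper50.OFOBR

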