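import Mathlib
import Cfsg.Agent.Lib.Helper31.InvSylow
import Cfsg.Agent.Lib.Helper31.FStarAct
import Cfsg.Agent.Lib.Helper91.Hall
import Cfsg.Agent.S0026

/-!
# Towards BG Theorem 3.6 (S1444), part (b): the commutator `[H,R]`, coprime lifting of
centralizers, and transfer of the hypotheses to quotients.
-/

set_option autoImplicit false

namespace Cfsg.Agent.Lib.Helper50.BG36b

open Cfsg

variable {G : Type*} [Group G]

/-- `[H,R]` is normal when `H` is normal and `G = H R`. -/
theorem commutator_normal (H R : Subgroup G) (hHR : H ⊔ R = ⊤) : (⁅H, R⁆).Normal := by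
  rw [← Subgroup.normalizer_eq_top_iff, eq_top_iff, ← hHR]
  exact sup_le (Cfsg.Agent.Lib.Helper31.FStarAct.le_normalizer_commutator H R)
    (Cfsg.Agent.Lib.Helper31.FStarAct.le_normalizer_commutator_right H R)

/-- Coprime action: `[[H,R],R] = [H,R]`. -/
theorem commutator_commutator [Finite G] (H R : Subgroup G) [H.Normal]
    (hcop : (Nat.card R).Coprime (Nat.card H)) (hsolv : Group.IsSolvable H) :
    ⁅⁅H, R⁆, R⁆ = ⁅H, R⁆ := by
  have hRH : R ≤ Subgroup.normalizer (H : Set G) := by
    rw [Subgroup.normalizer_eq_top_iff.mpr inferInstance]; exact le_top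
  have h := Cfsg.Agent.S0026.result R H hRH hcop (Or.inr hsolv)
  exact (Cfsg.Agent.Lib.Helper31.FStarAct.commutator_eq_of_split hRH h).symm

/-- Coprime lifting of fixed points: if the `r`-group `A` centralizes `xN` in `G/N`, `r ∤ |N|`,
then the coset `xN` contains an element centralized by `A`. -/
theorem cent_lift [Finite G] (A N : Subgroup G) [hN : N.Normal] {r : ℕ} [Fact r.Prime]
    (hA : IsPGroup r A) (hrN : ¬ r ∣ Nat.card N) (x : G)
    (hx : ∀ a ∈ A, QuotientGroup.mk' N a * QuotientGroup.mk' N x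
      = QuotientGroup.mk' N x * QuotientGroup.mk' N a) :
    ∃ n ∈ N, ∀ a ∈ A, a * (x * n) = (x * n) * a := by
  apply Cfsg.Agent.Lib.Helper31.InvSylow.exists_fixed_in_coset_pgroup A N hA hrN
    (fun a _ n hn => hN.conj_mem n hn a)
  intro a ha
  have h1 := hx a ha
  have h2 : QuotientGroup.mk' N (x⁻¹ * (a * x * a⁻¹)) = 1 := by
    rw [map_mul, map_mul, map_mul, map_inv, map_inv, h1]
    group
  rwa [QuotientGroup.mk'_apply, QuotientGroup.eq_one_iff] at h2

/-- The order of `R` is the index of `H` when `R` complements `H`. -/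
theorem card_eq_index_of_compl [Finite G] {H R : Subgroup G} (hR : Subgroup.IsComplement' H R) :
    Nat.card R = H.index := by
  have h1 := hR.card_mul_card
  have h2 := Subgroup.card_mul_index H
  have h3 : 0 < Nat.card H := Nat.card_pos
  exact Nat.eq_of_mul_eq_mul_left h3 (h1.trans h2.symm)

/-- Transfer of the hypotheses of BG 3.6 to the quotient by a normal subgroup `N ≤ H`. -/
theorem quot_transfer [Finite G] (H R R₀ N : Subgroup G) [hH : H.Normal] [hN : N.Normal]
    (hNH : N ≤ H) (hHall : (Nat.card H).Coprime H.index) (hR : Subgroup.IsComplement' H R)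
    (hR₀ : R₀ ≤ R) (hR₀p : (Nat.card R₀).Prime)
    (hZ : IsZGroup ↥(H ⊓ Subgroup.centralizer (R₀ : Set G))) :
    (Nat.card (H.map (QuotientGroup.mk' N))).Coprime (H.map (QuotientGroup.mk' N)).index ∧
      Subgroup.IsComplement' (H.map (QuotientGroup.mk' N)) (R.map (QuotientGroup.mk' N)) ∧
      R₀.map (QuotientGroup.mk' N) ≤ R.map (QuotientGroup.mk' N) ∧
      (Nat.card (R₀.map (QuotientGroup.mk' N))).Prime ∧
      IsZGroup ↥(H.map (QuotientGroup.mk' N) ⊓
        Subgroup.centralizer ((R₀.map (QuotientGroup.mk' N) : Subgroup (G ⧸ N)) : Set (G ⧸ N))) := by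
  set π := QuotientGroup.mk' N with hπ
  have hπs : Function.Surjective π := QuotientGroup.mk'_surjective N
  have hker : π.ker ≤ H := by rw [hπ, QuotientGroup.ker_mk']; exact hNH
  have hidx : (H.map π).index = H.index := Subgroup.index_map_eq H hπs hker
  have hRcard : Nat.card R = H.index := card_eq_index_of_compl hR
  have hcopHR : (Nat.card H).Coprime (Nat.card R) := by rw [hRcard]; exact hHall
  have hcop' : (Nat.card (H.map π)).Coprime (Nat.card (R.map π)) :=
    Nat.Coprime.coprime_dvd_left (Subgroup.card_map_dvd H π)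
      (Nat.Coprime.coprime_dvd_right (Subgroup.card_map_dvd R π) hcopHR)
  have hdisj : Disjoint H R := hR.disjoint
  refine ⟨?_, ?_, Subgroup.map_mono hR₀, ?_, ?_⟩
  · rw [hidx]
    exact Nat.Coprime.coprime_dvd_left (Subgroup.card_map_dvd H π) hHall
  · apply Subgroup.isComplement'_of_disjoint_and_mul_eq_univ
      (Subgroup.disjoint_of_coprime_natCard hcop')
    apply Set.eq_univ_of_forall
    intro z
    obtain ⟨g, rfl⟩ := hπs z
    obtain ⟨⟨a, b⟩, hab, -⟩ := hR.existsUnique g
    have hab' : (a : G) * (b : G) = g := hab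
    refine ⟨π a, ⟨a, a.2, rfl⟩, π b, ⟨b, b.2, rfl⟩, ?_⟩
    show π a * π b = π g
    rw [← map_mul, hab']
  · have hdvd : Nat.card (R₀.map π) ∣ Nat.card R₀ := Subgroup.card_map_dvd R₀ π
    rcases (Nat.dvd_prime hR₀p).mp hdvd with h1 | h1
    · exfalso
      have hbot : R₀.map π = ⊥ := Subgroup.card_eq_one.mp h1
      have hle : R₀ ≤ N := by
        intro x hx
        have h2 : π x ∈ R₀.map π := ⟨x, hx, rfl⟩
        rw [hbot, Subgroup.mem_bot, hπ, QuotientGroup.mk'_apply, QuotientGroup.eq_one_iff] at h2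
        exact h2
      have hle2 : R₀ ≤ H ⊓ R := le_inf (hle.trans hNH) hR₀
      rw [hdisj.eq_bot, le_bot_iff] at hle2
      rw [hle2, Subgroup.card_bot] at hR₀p
      exact Nat.not_prime_one hR₀p
    · rw [h1]; exact hR₀p
  · -- the centralizer of the image is the image of the centralizer
    have : Fact (Nat.card R₀).Prime := ⟨hR₀p⟩
    have hA : IsPGroup (Nat.card R₀) R₀ := IsPGroup.of_card (n := 1) (by rw [pow_one])
    have hrN : ¬ Nat.card R₀ ∣ Nat.card N := by
      intro hd
      have h1 : Nat.card R₀ ∣ Nat.card H := hd.trans (Subgroup.card_dvd_of_le hNH)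
      have h2 : Nat.card R₀ ∣ Nat.card R := Subgroup.card_dvd_of_le hR₀
      have h3 := Nat.dvd_gcd h1 h2
      rw [Nat.Coprime] at hcopHR
      rw [hcopHR] at h3
      exact hR₀p.one_lt.ne' (Nat.dvd_one.mp h3)
    have hmem : ∀ x : ↥(H ⊓ Subgroup.centralizer (R₀ : Set G)),
        (π.comp (H ⊓ Subgroup.centralizer (R₀ : Set G)).subtype) x ∈ (H.map π ⊓
          Subgroup.centralizer ((R₀.map π : Subgroup (G ⧸ N)) : Set (G ⧸ N))) := by
      intro x
      have hx := Subgroup.mem_inf.mp x.2
      refine Subgroup.mem_inf.mpr ⟨⟨x, hx.1, rfl⟩, ?_⟩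
      refine Subgroup.mem_centralizer_iff.mpr ?_
      rintro _ ⟨a, ha, rfl⟩
      have h1 := (Subgroup.mem_centralizer_iff.mp hx.2) a ha
      show π a * π x = π x * π a
      rw [← map_mul, ← map_mul, h1]
    let f : ↥(H ⊓ Subgroup.centralizer (R₀ : Set G)) →* ↥(H.map π ⊓
        Subgroup.centralizer ((R₀.map π : Subgroup (G ⧸ N)) : Set (G ⧸ N))) :=
      (π.comp (H ⊓ Subgroup.centralizer (R₀ : Set G)).subtype).codRestrict _ hmem
    have hf : Function.Surjective f := by
      rintro ⟨z, hz⟩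
      obtain ⟨hz1, hz2⟩ := Subgroup.mem_inf.mp hz
      obtain ⟨h, hh, rfl⟩ := hz1
      have hx : ∀ a ∈ R₀, π a * π h = π h * π a := by
        intro a ha
        exact (Subgroup.mem_centralizer_iff.mp hz2) (π a) ⟨a, ha, rfl⟩
      obtain ⟨n, hn, hfix⟩ := cent_lift R₀ N hA hrN h hx
      refine ⟨⟨h * n, Subgroup.mem_inf.mpr ⟨H.mul_mem hh (hNH hn), ?_⟩⟩, ?_⟩
      · refine Subgroup.mem_centralizer_iff.mpr ?_
        intro a ha
        exact hfix a ha
      · apply Subtype.ext
        show π (h * n) = π h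
        rw [map_mul]
        have : π n = 1 := by
          rw [hπ, QuotientGroup.mk'_apply, QuotientGroup.eq_one_iff]; exact hn
        rw [this, mul_one]
    exact IsZGroup.of_surjective hf

end Cfsg.Agent.Lib.Helper50.BG36b
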