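import Mathlib
import Cfsg.Agent.Lib.Helper44.MFldStmt
import Cfsg.Agent.Lib.Helper45.SingClass
import Cfsg.Agent.Lib.Helper44.MaxTS2
import Cfsg.Agent.Lib.Helper44.MaxTS3

set_option autoImplicit false

/-! Piece [GE] of S2737: the class character `ε` of the similarity group of a nondegenerate
quadratic form with a totally singular subspace of half the dimension (port of
`Helper48.OFldA4` to a general form). -/

namespace Cfsg.Agent.Lib.Helper50.MFldGE

open Matrix Module QuadraticMap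
open Cfsg.Agent.Lib.Helper45.OmegaAut Cfsg.Agent.Lib.Helper43.H90Fin
open Cfsg.Agent.Lib.Helper44.MFld0 Cfsg.Agent.Lib.Helper44.MaxTS
  Cfsg.Agent.Lib.Helper44.NegPairs Cfsg.Agent.Lib.Helper44.QSpace
  Cfsg.Agent.Lib.Helper44.QClass
  Cfsg.Agent.Lib.Helper44.MaxTS2 Cfsg.Agent.Lib.Helper44.MaxTS3
  Cfsg.Agent.Lib.Helper44.OGroup Cfsg.Agent.Lib.Helper44.OMat
  Cfsg.Agent.Lib.Helper45.SingClass

universe u

section

variable {K : Type u} [Field K] {ι : Type} [Fintype ι] [DecidableEq ι]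
variable {Q : QuadraticForm K (ι → K)} {n : ℕ} {U₀ : Submodule K (ι → K)}

/-- the matrix of a similarity -/
abbrev mat (g : GOq (⇑Q)) : Matrix ι ι K := ((g : GL ι K) : Matrix ι ι K)

/-- the codimension of `U₀ ∩ g U₀` in `U₀` -/
noncomputable def codim (n : ℕ) (U₀ : Submodule K (ι → K)) (g : GOq (⇑Q)) : ℕ :=
  n - finrank K ↥(U₀ ⊓ U₀.map (Matrix.toLin' (mat g)))

theorem sim (g : GOq (⇑Q)) : ∃ c : K, ∀ v,
    Q (glEquiv (g : GL ι K) v) = c * Q v := by
  obtain ⟨c, hc⟩ := g.2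
  exact ⟨c, fun v => hc v⟩

theorem toLin_mat (g : GOq (⇑Q)) :
    Matrix.toLin' (mat g) =
      ((glEquiv (g : GL ι K) : (ι → K) ≃ₗ[K] (ι → K)) : (ι → K) →ₗ[K] (ι → K)) :=
  toLin'_eq _

theorem codim_one (hU : TS Q n U₀) : codim n U₀ (1 : GOq (⇑Q)) = 0 := by
  unfold codim
  have e : U₀.map (Matrix.toLin' (mat (1 : GOq (⇑Q)))) = U₀ := by
    have : mat (1 : GOq (⇑Q)) = 1 := rfl
    rw [this, Matrix.toLin'_one]
    exact Submodule.map_id _
  rw [e, inf_idem, hU.1]
  exact Nat.sub_self n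

theorem codim_mul (hS : Sep Q) (hV : finrank K (ι → K) = 2 * n) (hU : TS Q n U₀)
    (g h : GOq (⇑Q)) :
    codim n U₀ (g * h) % 2 = (codim n U₀ g + codim n U₀ h) % 2 := by
  obtain ⟨c, hc⟩ := sim g
  obtain ⟨c', hc'⟩ := sim h
  have hgU := ts_map_sim hc hU
  have hhU := ts_map_sim hc' hU
  have hghU := ts_map_sim hc hhU
  have h1 := ts_parity hS hV _ hgU hghU hU rfl
  rw [finrank_map_inf] at h1
  have e : U₀.map (Matrix.toLin' (mat (g * h))) =
      (U₀.map (Matrix.toLin' (mat h))).map (Matrix.toLin' (mat g)) := by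
    have : mat (g * h) = mat g * mat h := rfl
    rw [this, Matrix.toLin'_mul, Submodule.map_comp]
  unfold codim
  rw [e, toLin_mat g, toLin_mat h]
  omega

/-- the class character -/
noncomputable def eps (hS : Sep Q) (hV : finrank K (ι → K) = 2 * n) (hU : TS Q n U₀) :
    GOq (⇑Q) →* Multiplicative (ZMod 2) where
  toFun g := Multiplicative.ofAdd ((codim n U₀ g : ℕ) : ZMod 2)
  map_one' := by
    rw [codim_one hU]
    rfl
  map_mul' g h := by
    rw [← ofAdd_add, ← Nat.cast_add]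
    congr 1
    rw [ZMod.natCast_eq_natCast_iff']
    exact codim_mul hS hV hU g h

theorem eps_eq_one_iff (hS : Sep Q) (hV : finrank K (ι → K) = 2 * n) (hU : TS Q n U₀)
    (g : GOq (⇑Q)) : eps hS hV hU g = 1 ↔ Even (codim n U₀ g) := by
  show Multiplicative.ofAdd ((codim n U₀ g : ℕ) : ZMod 2) = 1 ↔ _
  rw [ofAdd_eq_one, ZMod.natCast_eq_zero_iff_even]

end

theorem main : Cfsg.Agent.Lib.Helper44.MFldStmt.GenEps.{u} := by
  intro K _ _ ι _ _ Q n hS hcard hex
  obtain ⟨U₀, hU⟩ := hex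
  have hV : finrank K (ι → K) = 2 * n := by
    rw [Module.finrank_fintype_fun_eq_card]; exact hcard
  refine ⟨eps hS hV hU, ?_, ?_⟩
  · intro g
    rw [eps_eq_one_iff]
    obtain ⟨c, hc⟩ := g.2
    have h := preserves_iff hS hcard hU (g : GL ι K) (c := (c : K)) (fun v => hc v)
    exact h.symm
  · intro v hv g hg
    rw [Ne, eps_eq_one_iff]
    have h := adjacent_refl hS hV hU hv
    have e : Matrix.toLin' (mat g) =
        ((reflE Q v : (ι → K) ≃ₗ[K] (ι → K)) : (ι → K) →ₗ[K] (ι → K)) := by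
      apply LinearMap.ext
      intro x
      rw [Matrix.toLin'_apply]
      show mat g *ᵥ x = reflE Q v x
      rw [show mat g = Cfsg.reflectionMatrix (⇑Q) v from hg]
      exact reflection_mulVec Q v x
    have : codim n U₀ g = 1 := by
      unfold codim
      rw [e]
      omega
    rw [this]
    decide

end Cfsg.Agent.Lib.Helper50.MFldGE
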