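import Cfsg.Agent.Lib.Helper41.OFStmt

set_option autoImplicit false

namespace Cfsg.Agent.Lib.Helper50.OFREFLS

open Matrix
open Cfsg.Agent.Lib.Helper41.OFStmt

universe u

variable {F : Type u} [Field F]

theorem exists_aniso (h2 : (2 : F) ≠ 0) {n : ℕ} (hn : 1 ≤ n) (S : Matrix (Fin n) (Fin n) F)
    (hS : Sᵀ = S) (hdet : S.det ≠ 0) : ∃ v : Fin n → F, v ⬝ᵥ (S *ᵥ v) ≠ 0 := by
  by_contra hcon
  have h0 : ∀ v : Fin n → F, v ⬝ᵥ (S *ᵥ v) = 0 := fun v =>
    by_contra (fun h => hcon ⟨v, h⟩)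
  have hS0 : S = 0 := by
    ext i j
    have hii := h0 (Pi.single i 1)
    have hjj := h0 (Pi.single j 1)
    have hij := h0 (Pi.single i 1 + Pi.single j 1)
    have hji : S j i = S i j := by
      have := congrFun (congrFun hS j) i
      rw [Matrix.transpose_apply] at this
      exact this.symm
    simp only [Matrix.mulVec_add, add_dotProduct, dotProduct_add, single_one_dotProduct,
      Matrix.mulVec_single_one, Matrix.col_apply] at hii hjj hij
    rw [hii, hjj, hji] at hij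
    have h3 : 2 * S i j = 0 := by
      rw [← hij]; ring
    rcases mul_eq_zero.mp h3 with h | h
    · exact absurd h h2
    · simpa using h
  rw [hS0] at hdet
  haveI : Nonempty (Fin n) := ⟨⟨0, hn⟩⟩
  exact hdet Matrix.det_zero

theorem main : ReflS.{u} := by
  intro F _ h2 n hn S hS hdet
  obtain ⟨v, hq⟩ := exists_aniso h2 hn S hS hdet
  obtain ⟨q, hqdef⟩ : ∃ q : F, q = v ⬝ᵥ (S *ᵥ v) := ⟨_, rfl⟩
  obtain ⟨a, hadef⟩ : ∃ a : Fin n → F, a = S *ᵥ v := ⟨_, rfl⟩
  obtain ⟨c, hcdef⟩ : ∃ c : F, c = 2 / q := ⟨_, rfl⟩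
  obtain ⟨w, hwdef⟩ : ∃ w : Fin n → F, w = (-c) • v := ⟨_, rfl⟩
  have hq0 : q ≠ 0 := by rw [hqdef]; exact hq
  have hcq : c * q = 2 := by rw [hcdef]; exact div_mul_cancel₀ 2 hq0
  have hSw : S *ᵥ w = (-c) • a := by
    rw [hwdef, Matrix.mulVec_smul, hadef]
  have hwS : w ᵥ* S = (-c) • a := by
    rw [← hSw, ← Matrix.mulVec_transpose, hS]
  have haw : a ⬝ᵥ w = -2 := by
    rw [hwdef, dotProduct_smul, dotProduct_comm, hadef, ← hqdef, smul_eq_mul, neg_mul, hcq]
  refine ⟨1 + vecMulVec w a, ?_, ?_, ?_⟩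
  · rw [Matrix.transpose_add, Matrix.transpose_one, Matrix.transpose_vecMulVec]
    have e1 : vecMulVec a w * S = (-c) • vecMulVec a a := by
      rw [Matrix.vecMulVec_mul, hwS, Matrix.vecMulVec_smul]
    have e2 : S * vecMulVec w a = (-c) • vecMulVec a a := by
      rw [Matrix.mul_vecMulVec, hSw, Matrix.smul_vecMulVec]
    have e3 : vecMulVec a w * S * vecMulVec w a = (-c) • ((-2 : F) • vecMulVec a a) := by
      rw [e1, Matrix.smul_mul, Matrix.vecMulVec_mul_vecMulVec, haw, Matrix.vecMulVec_smul]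
    have e4 : (1 + vecMulVec a w) * S * (1 + vecMulVec w a) =
        S + vecMulVec a w * S + S * vecMulVec w a + vecMulVec a w * S * vecMulVec w a := by
      simp only [Matrix.add_mul, Matrix.mul_add, Matrix.one_mul, Matrix.mul_one]
      abel
    rw [e4, e3, e1, e2]
    module
  · have e1 : vecMulVec w a * vecMulVec w a = (-2 : F) • vecMulVec w a := by
      rw [Matrix.vecMulVec_mul_vecMulVec, haw, Matrix.vecMulVec_smul]
    have e4 : (1 + vecMulVec w a) * (1 + vecMulVec w a) =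
        1 + vecMulVec w a + vecMulVec w a + vecMulVec w a * vecMulVec w a := by
      simp only [Matrix.add_mul, Matrix.mul_add, Matrix.one_mul, Matrix.mul_one]
      abel
    rw [e4, e1]
    module
  · rw [Matrix.vecMulVec_eq Unit, Matrix.det_one_add_replicateCol_mul_replicateRow, haw]
    norm_num

end Cfsg.Agent.Lib.Helper50.OFREFLS

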