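import Cfsg.Agent.Lib.Helper41.OFStmt

set_option autoImplicit false

namespace Cfsg.Agent.Lib.Helper50.OFSABR

open Matrix
open Cfsg.Agent.Lib.Helper41.SpFStmt (Mat)
open Cfsg.Agent.Lib.Helper41.OFStmt

universe u

variable {F : Type u} [Field F] {d : ℕ}

/-- The polar form in coordinates. -/
theorem dot_S0' (u v : Fin d ⊕ Fin d → F) :
    u ⬝ᵥ (S0 d F *ᵥ v) = ∑ i : Fin d, (u (.inl i) * v (.inr i) + u (.inr i) * v (.inl i)) := by
  unfold S0
  rw [Matrix.fromBlocks_mulVec]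
  simp only [dotProduct, Fintype.sum_sum_type, Sum.elim_inl, Sum.elim_inr, Matrix.zero_mulVec,
    Matrix.one_mulVec, zero_add, add_zero, Function.comp_apply, Finset.sum_add_distrib]

theorem polar_eq (u v : Fin d ⊕ Fin d → F) :
    QuadraticMap.polar (Cfsg.quadFormPlus d F) u v = u ⬝ᵥ (S0 d F *ᵥ v) := by
  rw [dot_S0']
  unfold QuadraticMap.polar Cfsg.quadFormPlus
  rw [← Finset.sum_sub_distrib, ← Finset.sum_sub_distrib]
  apply Finset.sum_congr rfl
  intro i _
  simp only [Pi.add_apply]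
  ring

theorem main : SaBr.{u} := by
  intro F _ d K hK a ha
  have hB : ∀ u v : Fin d ⊕ Fin d → F,
      u ⬝ᵥ ((S0 d F * a) *ᵥ v) = u ⬝ᵥ ((aᵀ * S0 d F) *ᵥ v) := by
    intro u v
    have h1 := hK a ha u v
    rw [polar_eq, polar_eq] at h1
    rw [← Matrix.mulVec_mulVec, ← h1, ← Matrix.vecMul_transpose, ← Matrix.dotProduct_mulVec,
      Matrix.mulVec_mulVec]
  ext i j
  have := hB (Pi.single i 1) (Pi.single j 1)
  simpa using this

end Cfsg.Agent.Lib.Helper50.OFSABR

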