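import Mathlib
import Cfsg.Agent.Lib.Helper98.PSpStmt

/-!
Shared small lemmas for the S3421 pieces REG, FAITH, TWO, Z3, Z4 (action on Sylow subgroups).
-/

set_option autoImplicit false

namespace Cfsg.Agent.Lib.Helper50.PSpAux

open Cfsg.Agent.Lib.Helper98.PSpStmt

universe u

variable {G : Type u} [Group G] {p : ℕ}

/-- an element of a Sylow subgroup fixes it -/
theorem smul_eq_of_mem {P : Sylow p G} {g : G} (hg : g ∈ (P : Subgroup G)) : g • P = P :=
  Sylow.smul_eq_iff_mem_normalizer.2 (Subgroup.le_normalizer hg)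

/-- an element of a Sylow subgroup `P` fixing a Sylow subgroup `Q` lies in `Q` -/
theorem mem_of_smul_eq {P Q : Sylow p G} {g : G} (hg : g ∈ (P : Subgroup G)) (h : g • Q = Q) :
    g ∈ (Q : Subgroup G) := by
  have h1 : g ∈ (P : Subgroup G) ⊓ Subgroup.normalizer ((Q : Subgroup G) : Set G) :=
    ⟨hg, Sylow.smul_eq_iff_mem_normalizer.1 h⟩
  have h2 := P.2.inf_normalizer_sylow Q
  have h3 : g ∈ (P : Subgroup G) ⊓ (Q : Subgroup G) := by
    rw [← h2]
    exact h1
  exact h3.2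

/-- conjugation by an element fixing `P` preserves `P` -/
theorem conj_mem_of_smul_eq {P : Sylow p G} {g u : G} (h : g • P = P)
    (hu : u ∈ (P : Subgroup G)) : g * u * g⁻¹ ∈ (P : Subgroup G) :=
  (Subgroup.mem_normalizer_iff.1 (Sylow.smul_eq_iff_mem_normalizer.1 h) u).1 hu

/-- with TI: an element of `P` fixing another Sylow subgroup is trivial -/
theorem eq_one_of_smul_eq (hTI : ∀ P₁ P₂ : Sylow p G, P₁ ≠ P₂ →
    ((P₁ : Subgroup G) ⊓ (P₂ : Subgroup G)) = ⊥) {P Q : Sylow p G} (hne : Q ≠ P) {g : G}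
    (hg : g ∈ (P : Subgroup G)) (h : g • Q = Q) : g = 1 := by
  have h1 : g ∈ (P : Subgroup G) ⊓ (Q : Subgroup G) := ⟨hg, mem_of_smul_eq hg h⟩
  rw [hTI P Q (Ne.symm hne)] at h1
  exact Subgroup.mem_bot.1 h1

/-- there is a second Sylow subgroup -/
theorem exists_ne [Finite (Sylow p G)] {q : ℕ} (hq : 1 ≤ q) (hcard : Nat.card (Sylow p G) = q + 1)
    (P : Sylow p G) : ∃ P' : Sylow p G, P' ≠ P := by
  by_contra hcon
  have hcon : ∀ P' : Sylow p G, P' = P := fun P' => by
    by_contra hP'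
    exact hcon ⟨P', hP'⟩
  have : Subsingleton (Sylow p G) := ⟨fun a b => (hcon a).trans (hcon b).symm⟩
  have h1 : Nat.card (Sylow p G) ≤ 1 := Finite.card_le_one_iff_subsingleton.2 this
  omega

end Cfsg.Agent.Lib.Helper50.PSpAux
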