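import Mathlib
import Cfsg.Agent.Lib.Helper98.PSpStmt

/-!
S3421 piece ECENT: in the even case, an element commuting with an involution has square one.
-/

set_option autoImplicit false

namespace Cfsg.Agent.Lib.Helper50.PSpECENT

open Cfsg.Agent.Lib.Helper98.PSpStmt

universe u

theorem main : ECent.{u} := by
  intro G _ q h t c ht hct
  haveI := h.fin
  obtain ⟨f, hf⟩ := h.qpow
  have hq := h.qge
  have hqeven : Even q := by
    rcases Nat.eq_zero_or_pos f with h0 | h0
    · subst h0
      simp at hf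
      omega
    · rw [hf]
      exact (Nat.even_pow.2 ⟨even_two, by omega⟩)
  by_contra hc2
  have hco : orderOf c ∣ (q - 1) ∨ orderOf c ∣ (q + 1) := by
    rcases h.spec c with h1 | h1
    · exact absurd (orderOf_dvd_iff_pow_eq_one.1 h1) hc2
    · exact h1
  have hqm : Odd (q - 1) := Nat.Even.sub_odd (by omega) hqeven odd_one
  have hqp : Odd (q + 1) := hqeven.add_one
  have hodd : Odd (orderOf c) := by
    rcases hco with h1 | h1
    · exact Odd.of_dvd_nat hqm h1
    · exact Odd.of_dvd_nat hqp h1
  have hcop : Nat.Coprime (orderOf c) (orderOf t) := by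
    rw [ht]
    exact Nat.Coprime.symm (Nat.coprime_two_left.2 hodd)
  have hord : orderOf (c * t) = orderOf c * orderOf t :=
    hct.orderOf_mul_eq_mul_orderOf_of_coprime hcop
  rw [ht] at hord
  have hcne : orderOf c ≠ 1 := by
    intro h1
    rw [orderOf_eq_one_iff] at h1
    exact hc2 (by rw [h1]; simp)
  have h2dvd : 2 ∣ orderOf (c * t) := by
    rw [hord]
    exact Dvd.intro_left _ rfl
  rcases h.spec (c * t) with h1 | h1 | h1
  · rw [hord] at h1
    have h3 : orderOf c ∣ 1 :=
      Nat.dvd_of_mul_dvd_mul_right (by norm_num : 0 < 2) (by simpa using h1)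
    exact hcne (Nat.dvd_one.1 h3)
  · have h3 : 2 ∣ q - 1 := h2dvd.trans h1
    exact (Nat.not_even_iff_odd.2 hqm) (even_iff_two_dvd.2 h3)
  · have h3 : 2 ∣ q + 1 := h2dvd.trans h1
    exact (Nat.not_even_iff_odd.2 hqp) (even_iff_two_dvd.2 h3)

end Cfsg.Agent.Lib.Helper50.PSpECENT
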