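import Mathlib
import Cfsg.Agent.Lib.Helper98.PSpStmt
import Cfsg.Agent.Lib.Helper50.PSpAux

/-!
S3421 piece TWO: the action on the Sylow `p`-subgroups is 2-transitive (from REG).
-/

set_option autoImplicit false

namespace Cfsg.Agent.Lib.Helper50.PSpTWO

open Cfsg.Agent.Lib.Helper98.PSpStmt Cfsg.Agent.Lib.Helper50.PSpAux

universe u

theorem main (hReg : Reg.{u}) : Two.{u} := by
  intro G _ p q m₁ m₂ h
  have hfin := h.fin
  haveI : Fact p.Prime := ⟨h.pp⟩
  rw [MulAction.is_two_pretransitive_iff]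
  intro a b c d hab hcd
  obtain ⟨g1, hg1⟩ := MulAction.exists_smul_eq G a c
  have hne : g1 • b ≠ c := by
    intro hh
    rw [← hg1] at hh
    exact hab (smul_left_cancel g1 hh).symm
  obtain ⟨u, hu, -⟩ := hReg G p q m₁ m₂ h c (g1 • b) d hne (Ne.symm hcd)
  refine ⟨(u : G) * g1, ?_, ?_⟩
  · rw [mul_smul, hg1]
    exact smul_eq_of_mem u.2
  · rw [mul_smul]
    exact hu

end Cfsg.Agent.Lib.Helper50.PSpTWO
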