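import Mathlib
import Cfsg.Agent.Lib.Helper98.PSpStmt
import Cfsg.Agent.Lib.Helper50.PSpAux

/-!
S3421 piece Z3: only the identity fixes three Sylow `p`-subgroups (from REG, CP, TI).
-/

set_option autoImplicit false

namespace Cfsg.Agent.Lib.Helper50.PSpZ3

open Cfsg.Agent.Lib.Helper98.PSpStmt Cfsg.Agent.Lib.Helper50.PSpAux

universe u

theorem main (hReg : Reg.{u}) (hCP : CP.{u}) (hTI : TI.{u}) : Z3.{u} := by
  intro G _ p q m₁ m₂ h g a b c hab hbc hac ha hb hc
  have hfin := h.fin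
  haveI : Fact p.Prime := ⟨h.pp⟩
  obtain ⟨u, hu, huniq⟩ := hReg G p q m₁ m₂ h a b c (Ne.symm hab) (Ne.symm hac)
  have hv : g * (u : G) * g⁻¹ ∈ (a : Subgroup G) := conj_mem_of_smul_eq ha u.2
  have hginv : g⁻¹ • b = b := by
    rw [inv_smul_eq_iff, hb]
  have hvb : (g * (u : G) * g⁻¹) • b = c := by
    rw [mul_smul, mul_smul, hginv, hu, hc]
  have hvu : (⟨g * (u : G) * g⁻¹, hv⟩ : ↥(a : Subgroup G)) = u := huniq ⟨_, hv⟩ hvb
  have hvu' : g * (u : G) * g⁻¹ = (u : G) := congrArg Subtype.val hvu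
  have hcomm : Commute g (u : G) := by
    have : g * (u : G) = (u : G) * g := by
      calc g * (u : G) = g * (u : G) * g⁻¹ * g := by group
        _ = (u : G) * g := by rw [hvu']
    exact this
  have hu1 : (u : G) ≠ 1 := by
    intro h1
    rw [h1, one_smul] at hu
    exact hbc hu
  have hga : g ∈ (a : Subgroup G) := hCP G p q m₁ m₂ h a (u : G) g u.2 hu1 hcomm
  exact eq_one_of_smul_eq (hTI G p q m₁ m₂ h) (Ne.symm hab) hga hb

end Cfsg.Agent.Lib.Helper50.PSpZ3
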