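import Mathlib
import Cfsg.Agent.Lib.Helper55.S34Stmt
import Cfsg.Agent.Lib.Helper98.S68TI

set_option autoImplicit false

namespace Cfsg.Agent.Lib.Helper50.S34NOTIN

open Cfsg.Agent.Lib.Helper54.S68Stmt Cfsg.Agent.Lib.Helper55.S34Stmt

universe u

/-- `|K|` and `|Ks|` are coprime for a pair. -/
theorem coprime_card {G : Type u} [Group G] [Finite G] {M K Ms Ks : Subgroup G}
    (hP : Pair M K Ms Ks) : (Nat.card K).Coprime (Nat.card Ks) := by
  have hKsle : Ks ≤ Cfsg.sigmaCore M ⊓ Subgroup.centralizer (K : Set G) := le_of_eq hP.eKs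
  have hKsS : Ks ≤ Cfsg.sigmaCore M := hKsle.trans inf_le_left
  by_contra h
  obtain ⟨p, hp, hpa, hpb⟩ := Nat.Prime.not_coprime_iff_dvd.mp h
  have h1 : p ∉ Cfsg.sigma M := (hP.hK.2.1 p hp hpa).2.2.1
  apply h1
  have h2 : p ∣ Nat.card (Cfsg.sigmaCore M) := hpb.trans (Subgroup.card_dvd_of_le hKsS)
  have h3 : Nat.card (Cfsg.sigmaCore M) = Nat.card (Cfsg.piCore (Cfsg.sigma M) M) :=
    (Nat.card_congr
      ((Cfsg.piCore (Cfsg.sigma M) M).equivMapOfInjective M.subtype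
        M.subtype_injective).toEquiv).symm
  rw [h3] at h2
  exact Cfsg.Agent.Lib.Helper98.S68TI.piCore_pi (Cfsg.sigma M) p hp h2

/-- `K` and `Ks` commute elementwise for a pair. -/
theorem comm_pair {G : Type u} [Group G] {M K Ms Ks : Subgroup G}
    (hP : Pair M K Ms Ks) : ∀ a ∈ K, ∀ b ∈ Ks, a * b = b * a := by
  have hKsle : Ks ≤ Cfsg.sigmaCore M ⊓ Subgroup.centralizer (K : Set G) := le_of_eq hP.eKs
  exact fun a ha b hb => Subgroup.mem_centralizer_iff.mp (hKsle hb).2 a ha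

theorem main (hFus : Fus.{u}) : NotIn.{u} := by
  intro G _ _ hG M K U Ms Ks h g hg z hz hzM
  obtain ⟨hz1, hz2⟩ := hz
  have hP := h.pair
  have hz1' : z ∈ K ⊔ Ks := hz1
  have hc := comm_pair hP
  have hcop := coprime_card hP
  obtain ⟨k, hk, s, hs, rfl⟩ := Cfsg.Agent.Lib.Helper98.S68TI.mem_sup_comm K Ks hc hz1'
  have hcomm : Commute k s := hc k hk s hs
  have hs1 : s ≠ 1 := by
    intro h
    apply hz2
    left
    rw [h, mul_one]
    exact hk
  have hka : k ^ Nat.card K = 1 :=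
    orderOf_dvd_iff_pow_eq_one.mp (Subgroup.orderOf_dvd_natCard K hk)
  have hx1 : s ^ Nat.card K ≠ 1 := by
    intro h
    have hd1 : orderOf s ∣ Nat.card K := orderOf_dvd_iff_pow_eq_one.mpr h
    have hd2 : orderOf s ∣ Nat.card Ks := Subgroup.orderOf_dvd_natCard Ks hs
    have hd : orderOf s ∣ 1 := by
      have h3 := Nat.dvd_gcd hd1 hd2
      rwa [Nat.Coprime.gcd_eq_one hcop] at h3
    exact hs1 (orderOf_eq_one_iff.mp (Nat.dvd_one.mp hd))
  obtain ⟨m, hm, hmz⟩ := hzM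
  have hmz' : g * m * g⁻¹ = k * s := hmz
  have hm' : m = g⁻¹ * (k * s) * g := by
    rw [← hmz']; group
  have hcx : g⁻¹ * s ^ Nat.card K * g⁻¹⁻¹ ∈ M := by
    have h1 : g⁻¹ * s ^ Nat.card K * g⁻¹⁻¹ = m ^ Nat.card K := by
      rw [hm']
      have h2 : g⁻¹ * (k * s) * g = g⁻¹ * (k * s) * g⁻¹⁻¹ := by rw [inv_inv]
      rw [h2, conj_pow, hcomm.mul_pow, hka, one_mul]
    rw [h1]
    exact M.pow_mem hm _
  have hgM : g⁻¹ ∈ M := hFus hG M K Ms Ks hP _ (Ks.pow_mem hs _) hx1 g⁻¹ hcx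
  exact hg (by simpa using M.inv_mem hgM)

end Cfsg.Agent.Lib.Helper50.S34NOTIN

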