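import Mathlib
import Cfsg.Agent.Lib.Helper62.S57Stmt

/-!
# S1357 piece QUOTP (helper50): if some `d ∈ D` does not centralize `O / N` then `|R|` is prime.
Port of helper50's own `S56QUOT` (same verification of the hypotheses, `FrobModP` instead of
`FrobMod`, and `π` injective on `R`).
-/

set_option autoImplicit false

namespace Cfsg.Agent.Lib.Helper50.S57QUOTP

open Cfsg Cfsg.Agent.Lib.Helper93.S64Stmt Cfsg.Agent.Lib.Helper22.S56Stmt
  Cfsg.Agent.Lib.Helper62.S57Stmt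

universe u

theorem mem_mul_of_norm {X : Type u} [Group X] (D R : Subgroup X)
    (hRD : R ≤ Subgroup.normalizer (D : Set X)) {g : X} (hg : g ∈ D ⊔ R) :
    ∃ d ∈ D, ∃ r ∈ R, g = d * r := by
  have h1 : g ∈ ((D ⊔ R : Subgroup X) : Set X) := hg
  rw [Subgroup.coe_mul_of_right_le_normalizer_left D R hRD] at h1
  obtain ⟨d, hd, r, hr, rfl⟩ := Set.mem_mul.mp h1
  exact ⟨d, hd, r, hr, rfl⟩

theorem main (hQP : QuotPrime.{u}) (hFM : FrobModP.{u}) : QuotP.{u} := by
  intro X _ _ H R D N _ _ q hA hB hq hCO hDH hDO hRD hNO hpow hcomm hwit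
  haveI : Fact q.Prime := ⟨hB.qprime⟩
  obtain ⟨O, hOdef⟩ : ∃ O : Subgroup X, O = Oq X H q := ⟨_, rfl⟩
  rw [← hOdef] at hq hCO hDO hNO hpow hcomm hwit
  haveI hOn : O.Normal := by rw [hOdef]; infer_instance
  have hOH : O ≤ H := by rw [hOdef]; exact inf_le_right
  obtain ⟨π, hπ⟩ : ∃ π : X →* X ⧸ N, π = QuotientGroup.mk' N := ⟨_, rfl⟩
  have hπs : Function.Surjective π := by rw [hπ]; exact QuotientGroup.mk'_surjective N
  have hπ1 : ∀ x : X, π x = 1 ↔ x ∈ N := by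
    intro x; rw [hπ]; exact QuotientGroup.eq_one_iff x
  have hπeq : ∀ x y : X, π x = π y ↔ x⁻¹ * y ∈ N := by
    intro x y
    rw [← hπ1, map_mul, map_inv, inv_mul_eq_one]
  have hHR : H ⊓ R = ⊥ := Subgroup.inf_eq_bot_of_coprime hA.cop
  have hNH : N ≤ H := hNO.trans hOH
  -- the three images
  have hVn : (O.map π).Normal := Subgroup.Normal.map hOn π hπs
  have hQ := hQP H R N hNH hA.cop hA.prime
  rw [← hπ] at hQ
  -- R' ≠ ⊥
  obtain ⟨x₀, hx₀R, hx₀1⟩ : ∃ x ∈ R, x ≠ 1 := by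
    by_contra hcon
    push_neg at hcon
    exact hA.ne ((Subgroup.eq_bot_iff_forall R).mpr hcon)
  have hπx₀ : π x₀ ≠ 1 := by
    intro h
    have h1 : x₀ ∈ H ⊓ R := ⟨hNH ((hπ1 x₀).mp h), hx₀R⟩
    rw [hHR] at h1
    exact hx₀1 ((Subgroup.mem_bot).mp h1)
  have hR'ne : R.map π ≠ ⊥ := by
    intro h
    have h1 : π x₀ ∈ R.map π := Subgroup.mem_map_of_mem π hx₀R
    rw [h] at h1
    exact hπx₀ ((Subgroup.mem_bot).mp h1)
  -- C.map π centralizes R'
  have hCcent : (H ⊓ Subgroup.centralizer (R : Set X)).map π ≤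
      Subgroup.centralizer ((R.map π : Subgroup (X ⧸ N)) : Set (X ⧸ N)) := by
    rintro _ ⟨c, hc, rfl⟩
    rw [Subgroup.mem_centralizer_iff]
    rintro _ ⟨r, hr, rfl⟩
    have h1 : r * c = c * r := (Subgroup.mem_centralizer_iff.mp hc.2) r hr
    rw [← map_mul, ← map_mul, h1]
  have hVH : O.map π ≤ H.map π := Subgroup.map_mono hOH
  have hVeq : ∀ y ∈ R.map π, y ≠ 1 →
      O.map π ⊓ Subgroup.centralizer ({y} : Set (X ⧸ N)) =
        O.map π ⊓ Subgroup.centralizer ((R.map π : Subgroup (X ⧸ N)) : Set (X ⧸ N)) := by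
    intro y hy hy1
    apply le_antisymm
    · intro v hv
      refine ⟨hv.1, hCcent ?_⟩
      rw [← hQ y hy hy1]
      exact ⟨hVH hv.1, hv.2⟩
    · intro v hv
      refine ⟨hv.1, ?_⟩
      exact Subgroup.centralizer_le (Set.singleton_subset_iff.mpr hy) hv.2
  -- the fixed points are cyclic
  have hcyc : IsCyclic ↥(O.map π ⊓
      Subgroup.centralizer ((R.map π : Subgroup (X ⧸ N)) : Set (X ⧸ N))) := by
    haveI hC : IsCyclic ↥(H ⊓ Subgroup.centralizer (R : Set X)) :=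
      isCyclic_of_prime_card hB.card
    haveI hCm : IsCyclic ↥((H ⊓ Subgroup.centralizer (R : Set X)).map π) :=
      isCyclic_of_surjective (π.subgroupMap _) (π.subgroupMap_surjective _)
    have hle : O.map π ⊓ Subgroup.centralizer ((R.map π : Subgroup (X ⧸ N)) : Set (X ⧸ N)) ≤
        (H ⊓ Subgroup.centralizer (R : Set X)).map π := by
      rw [← hVeq (π x₀) (Subgroup.mem_map_of_mem π hx₀R) hπx₀,
        ← hQ (π x₀) (Subgroup.mem_map_of_mem π hx₀R) hπx₀]
      exact inf_le_inf_right _ hVH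
    exact isCyclic_of_injective (Subgroup.inclusion hle) (Subgroup.inclusion_injective hle)
  -- K ⊓ C(y) = ⊥
  have hKfree : ∀ y ∈ R.map π, y ≠ 1 →
      D.map π ⊓ Subgroup.centralizer ({y} : Set (X ⧸ N)) = ⊥ := by
    intro y hy hy1
    rw [eq_bot_iff]
    rintro k ⟨hkK, hkC⟩
    obtain ⟨d, hd, rfl⟩ := hkK
    have h1 : π d ∈ H.map π ⊓ Subgroup.centralizer ({y} : Set (X ⧸ N)) :=
      ⟨Subgroup.mem_map_of_mem π (hDH hd), hkC⟩
    rw [hQ y hy hy1] at h1
    obtain ⟨c, hc, hcd⟩ := h1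
    have hcO : c ∈ O := hCO hc
    have h2 : c⁻¹ * d ∈ N := (hπeq c d).mp hcd
    have hdO : d ∈ O := by
      have h3 : c * (c⁻¹ * d) ∈ O := O.mul_mem hcO (hNO h2)
      rwa [mul_inv_cancel_left] at h3
    have hd1 : d ∈ D ⊓ O := ⟨hd, hdO⟩
    rw [hDO] at hd1
    rw [Subgroup.mem_bot] at hd1 ⊢
    rw [hd1, map_one]
  -- (D ⊔ R) ⊓ O = ⊥
  have hSO : (D ⊔ R) ⊓ O = ⊥ := by
    rw [eq_bot_iff]
    rintro g ⟨hgS, hgO⟩
    obtain ⟨d, hd, r, hr, rfl⟩ := mem_mul_of_norm D R hRD hgS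
    have hrH : r ∈ H := by
      have h3 : d⁻¹ * (d * r) ∈ H := H.mul_mem (H.inv_mem (hDH hd)) (hOH hgO)
      rwa [inv_mul_cancel_left] at h3
    have hr1 : r ∈ H ⊓ R := ⟨hrH, hr⟩
    rw [hHR, Subgroup.mem_bot] at hr1
    rw [hr1, mul_one] at hgO ⊢
    have hd1 : d ∈ D ⊓ O := ⟨hd, hgO⟩
    rw [hDO] at hd1
    exact hd1
  have hScop : (Nat.card ↥(D ⊔ R)).Coprime q := by
    have hinj : Function.Injective ((QuotientGroup.mk' O).comp (D ⊔ R).subtype) := by
      rw [injective_iff_map_eq_one]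
      intro g hg
      have h1 : (g : X) ∈ O := by
        have := hg
        rw [MonoidHom.comp_apply, QuotientGroup.mk'_apply, QuotientGroup.eq_one_iff] at this
        exact this
      have h2 : (g : X) ∈ (D ⊔ R) ⊓ O := ⟨g.2, h1⟩
      rw [hSO, Subgroup.mem_bot] at h2
      exact Subtype.ext h2
    have hdvd : Nat.card ↥(D ⊔ R) ∣ O.index := by
      rw [Subgroup.index_eq_card]
      exact Subgroup.card_dvd_of_injective _ hinj
    rw [Nat.coprime_comm]
    exact (Nat.Prime.coprime_iff_not_dvd hB.qprime).mpr (fun h => hq (h.trans hdvd))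
  have hKR : D.map π ⊔ R.map π = (D ⊔ R).map π := (Subgroup.map_sup D R π).symm
  have hKRcop : (Nat.card ↥(D.map π ⊔ R.map π)).Coprime q := by
    rw [hKR]
    exact Nat.Coprime.coprime_dvd_left (Subgroup.card_map_dvd _ π) hScop
  haveI hYs : Group.IsSolvable (X ⧸ N) := by
    haveI := hA.solv
    exact solvable_of_surjective hπs
  have hKRs : Group.IsSolvable ↥(D.map π ⊔ R.map π) :=
    solvable_of_solvable_injective (Subgroup.subtype_injective _)
  have hKRodd : Odd (Nat.card ↥(D.map π ⊔ R.map π)) := by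
    have h1 : Nat.card ↥(D.map π ⊔ R.map π) ∣ Nat.card X :=
      (Subgroup.card_subgroup_dvd_card _).trans (Subgroup.card_quotient_dvd_card N)
    exact Odd.of_dvd_nat hA.odd h1
  have hnV : Subgroup.normalizer ((O.map π : Subgroup (X ⧸ N)) : Set (X ⧸ N)) = ⊤ :=
    Subgroup.normalizer_eq_top (O.map π)
  have hRK : R.map π ≤ Subgroup.normalizer ((D.map π : Subgroup (X ⧸ N)) : Set (X ⧸ N)) :=
    (Subgroup.map_mono hRD).trans (Subgroup.le_normalizer_map π)
  have key := hFM (O.map π) (D.map π) (R.map π) q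
    (by
      rintro _ ⟨a, ha, rfl⟩ _ ⟨b, hb, rfl⟩
      rw [← map_mul, ← map_mul, eq_comm, hπeq]
      have h1 := hcomm a⁻¹ (O.inv_mem ha) b⁻¹ (O.inv_mem hb)
      rw [inv_inv, inv_inv] at h1
      have h2 : (b * a)⁻¹ * (a * b) = a⁻¹ * b⁻¹ * a * b := by group
      rw [h2]; exact h1)
    (by
      rintro _ ⟨a, ha, rfl⟩
      rw [← map_pow, hπ1]
      exact hpow a ha)
    (by rw [hnV]; exact le_top)
    (by rw [hnV]; exact le_top)
    hRK hR'ne hKfree hKRs hKRodd hKRcop hVeq hcyc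
    (by
      obtain ⟨d, hd, o, ho, hdo⟩ := hwit
      intro hle
      have h2 := (Subgroup.mem_centralizer_iff.mp (hle (Subgroup.mem_map_of_mem π hd))) (π o)
        (Subgroup.mem_map_of_mem π ho)
      apply hdo
      rw [← hπ1, map_mul, map_mul, map_mul, map_inv, map_inv, ← h2]
      group)
  have hinjR : Function.Injective (π.subgroupMap R) := by
    rw [injective_iff_map_eq_one]
    intro g hg
    have h1 : π (g : X) = 1 := congrArg Subtype.val hg
    have h2 : (g : X) ∈ H ⊓ R := ⟨hNH ((hπ1 _).mp h1), g.2⟩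
    rw [hHR, Subgroup.mem_bot] at h2
    exact Subtype.ext h2
  have hcardR : Nat.card ↥(R.map π) = Nat.card ↥R :=
    (Nat.card_congr (Equiv.ofBijective _ ⟨hinjR, π.subgroupMap_surjective R⟩)).symm
  rw [← hcardR]
  exact key


end Cfsg.Agent.Lib.Helper50.S57QUOTP
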