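import Mathlib
import Cfsg.Agent.Lib.Helper14.TC3Stmt

/-!
S4460 piece CASEA: arithmetic of the degrees in the case of a non-abelian `p`-quotient.
-/

set_option autoImplicit false

namespace Cfsg.Agent.Lib.Helper50.TC3CASEA

open Cfsg Cfsg.Agent.Lib.Helper14.TC3Stmt

universe u

theorem main : Cfsg.Agent.Lib.Helper14.TC3Stmt.CaseA.{u} := by
  intro G _ _ m n p c hD hcop hm hn hHm hHn hp hc hHp hall
  have hpc : 1 < p ^ c := Nat.one_lt_pow hc.ne' hp.one_lt
  have hpd : p ∣ p ^ c := dvd_pow_self p hc.ne'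
  -- a product of the two degrees is not a degree
  have hmn : ¬ HasDeg G (m * n) := by
    rintro ⟨χ, hχ⟩
    rcases hD χ with h | h | h
    · rw [h] at hχ
      nlinarith
    · rw [h] at hχ
      nlinarith
    · rw [h] at hχ
      nlinarith
  obtain ⟨χ, hχ⟩ := hHp
  rcases hD χ with h | h | h
  · rw [h] at hχ
    omega
  · -- p ^ c = m
    have hpm : p ^ c = m := hχ.symm.trans h
    have hpn : ¬ p ∣ n := by
      intro hd
      have h1 : p ∣ Nat.gcd m n := Nat.dvd_gcd (hpm ▸ hpd) hd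
      rw [hcop.gcd_eq_one] at h1
      exact hp.one_lt.ne' (Nat.dvd_one.1 h1)
    obtain ⟨ψ, hψ⟩ := hHn
    have h2 := hall ψ (by rw [hψ]; exact hpn)
    rw [hψ, hpm] at h2
    exact hmn h2
  · -- p ^ c = n
    have hpn : p ^ c = n := hχ.symm.trans h
    have hpm : ¬ p ∣ m := by
      intro hd
      have h1 : p ∣ Nat.gcd m n := Nat.dvd_gcd hd (hpn ▸ hpd)
      rw [hcop.gcd_eq_one] at h1
      exact hp.one_lt.ne' (Nat.dvd_one.1 h1)
    obtain ⟨ψ, hψ⟩ := hHm
    have h2 := hall ψ (by rw [hψ]; exact hpm)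
    rw [hψ, hpn, mul_comm] at h2
    exact hmn h2

end Cfsg.Agent.Lib.Helper50.TC3CASEA
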