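import Mathlib
import Cfsg.Agent.Lib.Helper14.TC3Stmt
import Cfsg.Agent.Lib.Helper3.TDBasic
import Cfsg.Agent.Lib.CT.Ops

/-!
S4460 piece CASEB: the degrees of `N` in the case of a Frobenius-type section.
-/

set_option autoImplicit false

namespace Cfsg.Agent.Lib.Helper50.TC3CASEB

open Cfsg Cfsg.Agent.Lib.Helper14.TC3Stmt

universe u

theorem main : Cfsg.Agent.Lib.Helper14.TC3Stmt.CaseB.{u} := by
  intro G _ _ m n N p hD hcop hm hn hNn hNtop hp hpidx hall
  classical
  haveI := hNn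
  haveI : Fintype ↥N := Fintype.ofFinite _
  have hidx0 : N.index ≠ 0 := Subgroup.index_ne_zero_of_finite
  have hidx1 : N.index ≠ 1 := fun h => hNtop (Subgroup.index_eq_one.1 h)
  have hf1 : 1 < N.index := by omega
  have hHf : HasDeg G N.index := by
    have hd1 : charDegree (fun _ : ↥N => (1 : ℂ)) = 1 := by simp [charDegree]
    rcases hall ⟨fun _ => 1, Cfsg.Agent.Lib.CT.Ops.isIrrCharacter_one⟩ with h1 | h1
    · have h2 : HasDeg G (N.index * charDegree (fun _ : ↥N => (1 : ℂ))) := h1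
      rw [hd1, mul_one] at h2
      exact h2
    · have h2 : p ∣ charDegree (fun _ : ↥N => (1 : ℂ)) := h1
      rw [hd1] at h2
      exact absurd (Nat.dvd_one.1 h2) hp.one_lt.ne'
  have key : ∀ f', Nat.Coprime N.index f' →
      (∀ χ : IrrCharacter G, charDegree (χ : G → ℂ) = 1 ∨ charDegree (χ : G → ℂ) = N.index ∨
        charDegree (χ : G → ℂ) = f') → Deg2 ↥N f' := by
    intro f' hcop' hD' ψ
    have hψpos := Cfsg.Agent.Lib.Helper80.Integrality.charDegree_pos ψ
    rcases hall ψ with ⟨χ, hχ⟩ | hpψ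
    · left
      rcases hD' χ with h | h | h
      · rw [h] at hχ
        have h2 : N.index ∣ 1 := ⟨_, hχ⟩
        exact absurd (Nat.dvd_one.1 h2) hidx1
      · rw [h] at hχ
        exact Nat.eq_of_mul_eq_mul_left (by omega : 0 < N.index) (by rw [mul_one]; exact hχ.symm)
      · exfalso
        rw [h] at hχ
        have hdvd : N.index ∣ f' := ⟨_, hχ⟩
        have h2 : N.index ∣ Nat.gcd N.index f' := Nat.dvd_gcd dvd_rfl hdvd
        rw [hcop'.gcd_eq_one] at h2
        exact hidx1 (Nat.dvd_one.1 h2)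
    · right
      obtain ⟨χ, -, hdvd, hquot⟩ := Cfsg.Agent.Lib.Helper3.TDBasic.exists_over N ψ
      have hpχ : p ∣ charDegree (χ : G → ℂ) := hpψ.trans hdvd
      rcases hD' χ with h | h | h
      · rw [h] at hpχ
        exact absurd (Nat.dvd_one.1 hpχ) hp.one_lt.ne'
      · rw [h] at hpχ
        exact absurd hpχ hpidx
      · rw [h] at hdvd hquot
        have hd2 : f' / charDegree (ψ : ↥N → ℂ) ∣ f' := Nat.div_dvd_of_dvd hdvd
        have h2 : f' / charDegree (ψ : ↥N → ℂ) ∣ Nat.gcd N.index f' := Nat.dvd_gcd hquot hd2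
        rw [hcop'.gcd_eq_one] at h2
        have h3 := Nat.dvd_one.1 h2
        have h4 := Nat.mul_div_cancel' hdvd
        rw [h3, mul_one] at h4
        exact h4
  obtain ⟨χ, hχ⟩ := hHf
  rcases hD χ with h | h | h
  · omega
  · have hfm : N.index = m := hχ.symm.trans h
    exact ⟨n, key n (hfm ▸ hcop) (fun χ => by rw [hfm]; exact hD χ)⟩
  · have hfn : N.index = n := hχ.symm.trans h
    refine ⟨m, key m (hfn ▸ hcop.symm) (fun χ => ?_)⟩
    rw [hfn]
    rcases hD χ with h | h | h
    · exact Or.inl h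
    · exact Or.inr (Or.inr h)
    · exact Or.inr (Or.inl h)

end Cfsg.Agent.Lib.Helper50.TC3CASEB
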