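import Mathlib
import Cfsg.Agent.Lib.Helper14.TC3Stmt
import Cfsg.Agent.Lib.CT.Ops

/-!
S4460 piece CD3: exactly three character degrees means the degrees are `1`, `m`, `n`.
-/

set_option autoImplicit false

namespace Cfsg.Agent.Lib.Helper50.TC3CD3

open Cfsg Cfsg.Agent.Lib.Helper14.TC3Stmt

universe u

theorem main : Cfsg.Agent.Lib.Helper14.TC3Stmt.CD3.{u} := by
  intro G _ _ h
  have h3 : Set.ncard {n : ℕ | ∃ χ : IrrCharacter G, charDegree (χ : G → ℂ) = n} = 3 := by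
    rw [← Nat.card_coe_set_eq]
    exact h
  obtain ⟨x, y, z, hxy, hxz, hyz, hS⟩ := Set.ncard_eq_three.1 h3
  have h1 : (1 : ℕ) ∈ {n : ℕ | ∃ χ : IrrCharacter G, charDegree (χ : G → ℂ) = n} := by
    refine ⟨⟨fun _ => 1, Cfsg.Agent.Lib.CT.Ops.isIrrCharacter_one⟩, ?_⟩
    simp [charDegree]
  have hall : ∀ χ : IrrCharacter G, charDegree (χ : G → ℂ) ∈ ({x, y, z} : Set ℕ) := by
    intro χ
    rw [← hS]
    exact ⟨χ, rfl⟩
  rw [hS] at h1
  simp only [Set.mem_insert_iff, Set.mem_singleton_iff] at h1 hall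
  rcases h1 with h1 | h1 | h1
  · refine ⟨y, z, fun χ => ?_⟩
    rcases hall χ with h | h | h
    · exact Or.inl (h.trans h1.symm)
    · exact Or.inr (Or.inl h)
    · exact Or.inr (Or.inr h)
  · refine ⟨x, z, fun χ => ?_⟩
    rcases hall χ with h | h | h
    · exact Or.inr (Or.inl h)
    · exact Or.inl (h.trans h1.symm)
    · exact Or.inr (Or.inr h)
  · refine ⟨x, y, fun χ => ?_⟩
    rcases hall χ with h | h | h
    · exact Or.inr (Or.inl h)
    · exact Or.inr (Or.inr h)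
    · exact Or.inl (h.trans h1.symm)

end Cfsg.Agent.Lib.Helper50.TC3CD3
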