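import Mathlib
import Cfsg.Agent.Lib.Helper14.TC3Stmt
import Cfsg.Agent.S4456

/-!
S4460 piece EAB3: Thompson's normal `r`-complement contains the commutator subgroup.
-/

set_option autoImplicit false

namespace Cfsg.Agent.Lib.Helper50.TC3EAB3

open Cfsg Cfsg.Agent.Lib.Helper14.TC3Stmt

universe u

theorem main : Cfsg.Agent.Lib.Helper14.TC3Stmt.EAB3.{u} := by
  intro G _ _ r hr hNL hNP
  obtain ⟨R₀, hR₀n, hcop, k, hk⟩ := Cfsg.Agent.S4456.result r hr hNL
  have hle : commutator G ≤ R₀ := hNP R₀ r hR₀n hr ⟨k, hk⟩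
  exact Nat.Coprime.coprime_dvd_left (Subgroup.card_dvd_of_le hle) hcop

end Cfsg.Agent.Lib.Helper50.TC3EAB3
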