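import Mathlib
import Cfsg.Agent.Lib.Helper14.TC3Stmt
import Cfsg.Agent.Lib.Helper3.TDBasic
import Cfsg.Agent.S4456

/-!
S4460 piece PCOMPL: if `p` divides both non-trivial degrees there is a normal `p`-complement,
whose degrees are the `p'`-parts.
-/

set_option autoImplicit false

namespace Cfsg.Agent.Lib.Helper50.TC3PCOMPL

open Cfsg Cfsg.Agent.Lib.Helper14.TC3Stmt

universe u

theorem main : Cfsg.Agent.Lib.Helper14.TC3Stmt.PCompl.{u} := by
  intro G _ _ m n p hp hD hpm hpn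
  classical
  have hdeg : ∀ χ : IrrCharacter G, charDegree (χ : G → ℂ) ≠ 1 →
      p ∣ charDegree (χ : G → ℂ) := by
    intro χ h1
    rcases hD χ with h | h | h
    · exact absurd h h1
    · rw [h]
      exact hpm
    · rw [h]
      exact hpn
  obtain ⟨H, hHn, hcop, k, hk⟩ := Cfsg.Agent.S4456.result p hp hdeg
  refine ⟨H, hHn, hcop, ⟨k, hk⟩, ?_⟩
  haveI := hHn
  haveI : Fintype ↥H := Fintype.ofFinite _
  intro θ
  obtain ⟨χ, -, hdvd, hquot⟩ := Cfsg.Agent.Lib.Helper3.TDBasic.exists_over H θ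
  have hθcard := Cfsg.Agent.Lib.Helper80.Integrality.charDegree_dvd_card θ
  have hθp : ¬ p ∣ charDegree (θ : ↥H → ℂ) := by
    intro hd
    have h1 : p ∣ Nat.card ↥H := hd.trans hθcard
    have h2 : p ∣ Nat.gcd (Nat.card ↥H) p := Nat.dvd_gcd h1 dvd_rfl
    rw [hcop.gcd_eq_one] at h2
    exact hp.one_lt.ne' (Nat.dvd_one.1 h2)
  rw [hk] at hquot
  obtain ⟨j, -, hj⟩ := (Nat.dvd_prime_pow hp).1 hquot
  have hχ : charDegree (χ : G → ℂ) = p ^ j * charDegree (θ : ↥H → ℂ) := by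
    have h1 := Nat.div_mul_cancel hdvd
    rw [hj] at h1
    exact h1.symm
  have hord : ordCompl[p] (charDegree (χ : G → ℂ)) = charDegree (θ : ↥H → ℂ) := by
    rw [hχ]
    exact Nat.ordCompl_pow_mul_of_not_dvd j hp hθp
  rcases hD χ with h | h | h
  · left
    rw [← hord, h]
    simp
  · right
    left
    rw [← hord, h]
  · right
    right
    rw [← hord, h]

end Cfsg.Agent.Lib.Helper50.TC3PCOMPL
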