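import Mathlib
import Cfsg.Agent.Lib.Helper14.TC3Stmt
import Cfsg.Agent.S4456

/-!
S4460 piece THN: Thompson's normal `q`-complement of a normal subgroup `N` is normal in `G`.
-/

set_option autoImplicit false

namespace Cfsg.Agent.Lib.Helper50.TC3THN

open Cfsg Cfsg.Agent.Lib.Helper14.TC3Stmt

universe u

/-- the normal `q`-complement inside `↥N`, with normal image in `G` -/
theorem core {G : Type u} [Group G] [Finite G] (N : Subgroup G) (q : ℕ) (hN : N.Normal)
    (hq : q.Prime) (hNL : NonlinDvd ↥N q) :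
    ∃ (L₁ : Subgroup ↥N) (k : ℕ), L₁.Normal ∧ (Nat.card L₁).Coprime q ∧ L₁.index = q ^ k ∧
      (L₁.map N.subtype).Normal := by
  obtain ⟨L₁, hL₁n, hcop, k, hk⟩ := Cfsg.Agent.S4456.result q hq hNL
  refine ⟨L₁, k, hL₁n, hcop, hk, ?_⟩
  haveI := hL₁n
  have ha : ∀ x : ↥N, Nat.Coprime (orderOf x) q → x ∈ L₁ := by
    intro x hx
    have h1 : x ^ L₁.index ∈ L₁ := Subgroup.pow_index_mem L₁ x
    rw [hk] at h1
    have h2 : Nat.Coprime (q ^ k) (orderOf x) := (Nat.Coprime.pow_right k hx).symm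
    obtain ⟨m, hm⟩ := exists_pow_eq_self_of_coprime h2
    rw [← hm]
    exact pow_mem h1 m
  constructor
  intro x hx g
  obtain ⟨x', hx', rfl⟩ := hx
  have hmem : g * (x' : G) * g⁻¹ ∈ N := hN.conj_mem _ x'.2 g
  have hord : orderOf (⟨g * (x' : G) * g⁻¹, hmem⟩ : ↥N) = orderOf x' := by
    rw [← Subgroup.orderOf_coe, ← Subgroup.orderOf_coe]
    exact MulEquiv.orderOf_eq (MulAut.conj g) (x' : G)
  have hdvd : orderOf x' ∣ Nat.card L₁ := by
    have h3 : orderOf (⟨x', hx'⟩ : ↥L₁) ∣ Nat.card L₁ := orderOf_dvd_natCard _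
    rw [← Subgroup.orderOf_coe] at h3
    exact h3
  have hc : Nat.Coprime (orderOf (⟨g * (x' : G) * g⁻¹, hmem⟩ : ↥N)) q := by
    rw [hord]
    exact Nat.Coprime.coprime_dvd_left hdvd hcop
  exact ⟨⟨g * (x' : G) * g⁻¹, hmem⟩, ha _ hc, rfl⟩

theorem relIndex_map {G : Type u} [Group G] (N : Subgroup G) (L₁ : Subgroup ↥N) :
    (L₁.map N.subtype).relIndex N = L₁.index := by
  have h : (L₁.map N.subtype).subgroupOf N = L₁ :=
    Subgroup.comap_map_eq_self_of_injective N.subtype_injective L₁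
  unfold Subgroup.relIndex
  rw [h]

theorem main : Cfsg.Agent.Lib.Helper14.TC3Stmt.THN.{u} := by
  intro G _ _ N q hN hq hNL
  obtain ⟨L₁, k, hL₁n, hcop, hk, hnorm⟩ := core N q hN hq hNL
  refine ⟨L₁.map N.subtype, hnorm, Subgroup.map_subtype_le L₁, ?_, k, ?_⟩
  · rw [Subgroup.card_map_of_injective N.subtype_injective]
    exact hcop
  · rw [relIndex_map, hk]

end Cfsg.Agent.Lib.Helper50.TC3THN
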