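import Mathlib
import Cfsg.Agent.Lib.Helper41.UnitStmt
import Cfsg.Agent.Lib.Helper37.InvConj
import Cfsg.Agent.Lib.Helper40.SSConj
import Cfsg.Agent.Lib.Helper40.InvDims

/-!
S5982 piece COMMDET: the centralizer of a matrix whose `r`-th power is a non-zero scalar
(`r = 2` or `r` prime to the characteristic) contains matrices of every determinant.
-/

set_option autoImplicit false

namespace Cfsg.Agent.Lib.Helper50.UnitCOMMDET

universe u

theorem main : Cfsg.Agent.Lib.Helper41.UnitStmt.CommDet.{u} := by
  intro F _ _ n hn r hr hcase x z hz hx δ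
  classical
  by_cases hr0 : (r : F) ≠ 0
  · haveI : Nonempty (Fin n) := ⟨⟨0, hn⟩⟩
    have hs := Cfsg.Agent.Lib.Helper40.InvDims.isSemisimple_of_pow_eq_smul x r z hz hr0 hx
    obtain ⟨c, hc, hdet⟩ :=
      Cfsg.Agent.Lib.Helper40.SSConj.exists_commute_det (Matrix.toLin' x) hs δ
    have hcA : LinearMap.toMatrix' c * x = x * LinearMap.toMatrix' c := by
      have h2 := congrArg LinearMap.toMatrix' hc
      rw [Module.End.mul_eq_comp, Module.End.mul_eq_comp, LinearMap.toMatrix'_comp,
        LinearMap.toMatrix'_comp, LinearMap.toMatrix'_toLin'] at h2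
      exact h2
    exact ⟨LinearMap.toMatrix' c, hcA, by rw [LinearMap.det_toMatrix', hdet]⟩
  · have hr2 : r = 2 := by
      rcases hcase with h | h
      · exact h
      · exact absurd h hr0
    subst hr2
    rw [pow_two] at hx
    exact Cfsg.Agent.Lib.Helper37.InvConj.exists_comm_det hn x hz hx δ

end Cfsg.Agent.Lib.Helper50.UnitCOMMDET
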