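import Mathlib
import Cfsg.Agent.Lib.Helper41.UnitStmt
import Cfsg.Agent.Lib.Helper21.SubfFROB

/-!
S5982 piece FROBMAP: the characteristic polynomial of `M ^ q₀` is the `φ`-image of that of `M`
(`φ x = x ^ q₀`, `|F| = q₀ ^ 2`).
-/

set_option autoImplicit false

namespace Cfsg.Agent.Lib.Helper50.UnitFROBMAP

open Polynomial Matrix

universe u

theorem main : Cfsg.Agent.Lib.Helper41.UnitStmt.FrobMap.{u} := by
  intro F _ _ q₀ hcard φ hφ n M
  classical
  rcases Nat.eq_zero_or_pos n with hn | hn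
  · subst hn
    have h1 : ∀ A : Matrix (Fin 0) (Fin 0) F, A.charpoly = 1 := by
      intro A
      unfold Matrix.charpoly
      exact Matrix.det_isEmpty
    rw [h1, h1, Polynomial.map_one]
  haveI : Nonempty (Fin n) := ⟨⟨0, hn⟩⟩
  obtain ⟨p, hchar⟩ := CharP.exists F
  haveI := hchar
  have hp : p.Prime := CharP.char_is_prime F p
  haveI : Fact p.Prime := ⟨hp⟩
  obtain ⟨m, -, hm⟩ := FiniteField.card F p
  have hdvd : q₀ ∣ p ^ (m : ℕ) := by
    rw [← hm, hcard]
    exact Dvd.intro_left (q₀ ^ 1) (by ring)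
  obtain ⟨e, -, he⟩ := (Nat.dvd_prime_pow hp).1 hdvd
  subst he
  have hφe : φ = iterateFrobenius F p e := by
    ext a
    rw [hφ, iterateFrobenius_def]
  have h1 := Cfsg.Agent.Lib.Helper21.SubfFROB.expand_charpoly_pow p M e
  have h2 := Polynomial.map_iterateFrobenius_expand (R := F) (p := p) M.charpoly e
  rw [Polynomial.map_expand] at h2
  rw [hφe]
  apply Polynomial.expand_injective (pow_pos hp.pos e)
  rw [h2, h1]

end Cfsg.Agent.Lib.Helper50.UnitFROBMAP
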