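import Mathlib
import Cfsg.Agent.Lib.Helper41.UnitStmt
import Cfsg.Agent.Lib.Helper40.PrimeFix

/-!
S5982 piece ZONE2 (adapted from `Helper20.SubfZONE`): `(q - 1)_r = r`, `n = r`: a matrix of
determinant `1` whose `r`-th power is scalar has `r`-th power `1`.
-/

set_option autoImplicit false

namespace Cfsg.Agent.Lib.Helper50.UnitZONE2

universe u

theorem main : Cfsg.Agent.Lib.Helper41.UnitStmt.ZOne2.{u} := by
  intro F _ _ p _ _ r _ hr2 hrp hqv x hdet z hx
  have hr : r.Prime := Fact.out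
  have hpp : p.Prime := Fact.out
  have hzr : z ^ r = 1 := by
    have h1 := congrArg Matrix.det hx
    rw [Matrix.det_pow, hdet, one_pow, Matrix.det_smul, Matrix.det_one, mul_one,
      Fintype.card_fin] at h1
    exact h1.symm
  have hz0 : z ≠ 0 := by
    rintro rfl
    rw [zero_pow hr.ne_zero] at hzr
    exact zero_ne_one hzr
  have hr0 : (r : F) ≠ 0 := by
    rw [Ne, CharP.cast_eq_zero_iff F p r]
    intro hd
    exact hrp ((Nat.prime_dvd_prime_iff_eq hpp hr).mp hd).symm
  have hq1 : 1 < Fintype.card F := Fintype.one_lt_card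
  have hr2' := hr.two_le
  by_cases hpow : ∃ d : F, d ^ r = z
  · obtain ⟨d, hd⟩ := hpow
    have hd0 : d ≠ 0 := by
      rintro rfl
      rw [zero_pow hr.ne_zero] at hd
      exact hz0 hd.symm
    have h1 : d ^ (r ^ 2) = 1 := by rw [pow_two, pow_mul, hd, hzr]
    have h2 : d ^ (Fintype.card F - 1) = 1 := FiniteField.pow_card_sub_one_eq_one d hd0
    have ho1 : orderOf d ∣ r ^ 2 := orderOf_dvd_of_pow_eq_one h1
    have ho2 : orderOf d ∣ Fintype.card F - 1 := orderOf_dvd_of_pow_eq_one h2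
    obtain ⟨i, hi, hoi⟩ := (Nat.dvd_prime_pow hr).mp ho1
    have hi1 : i ≤ 1 := by
      rw [hoi] at ho2
      have := (padicValNat_dvd_iff_le (by omega : Fintype.card F - 1 ≠ 0)).mp ho2
      omega
    have hdr : d ^ r = 1 := by
      apply orderOf_dvd_iff_pow_eq_one.mp
      rw [hoi]
      exact (pow_dvd_pow r hi1).trans (by rw [pow_one])
    rw [hx, ← hd, hdr, one_smul]
  · exfalso
    have hpow' : ∀ d : F, d ^ r ≠ z := fun d hd => hpow ⟨d, hd⟩
    refine Cfsg.Agent.Lib.Helper40.PrimeFix.nonpower_arith r hr0 hr.one_le x hdet z hpow' hx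
      ⟨?_, fun h => absurd h hr2⟩
    rw [hqv, padicValNat_self]

end Cfsg.Agent.Lib.Helper50.UnitZONE2
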